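import Mathlib

/-!
# Faithful modules of groups with a cyclic TI Sylow subgroup

A product over the automorphisms induced on the Sylow subgroup gives an endomorphism commuting with the
normalizer; summing its conjugates over the group gives zero by Schur's lemma, so it lies in the image of
the norm, and this bounds the length of the Jordan blocks from below.
-/

set_option linter.unusedSectionVars false

namespace CfsgLib.Modular.CyclicTI

open Polynomial Finset

variable {F : Type*} [Field F] {p : ℕ} [Fact p.Prime] [CharP F p]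
  {V : Type*} [AddCommGroup V] [Module F V]

theorem geom_eq_sub_pow (n : ℕ) :
    ∑ i ∈ range (p ^ n), (Polynomial.X : F[X]) ^ i = (Polynomial.X - 1) ^ (p ^ n - 1) := by
  have hne : (Polynomial.X - 1 : F[X]) ≠ 0 := by simpa using X_sub_C_ne_zero (1 : F)
  refine mul_right_cancel₀ hne ?_
  rw [geom_sum_mul, ← pow_succ, Nat.sub_add_cancel (Nat.one_le_pow _ _ (Fact.out : p.Prime).pos),
    sub_pow_char_pow, one_pow]

/-- The norm of an endomorphism carries the kernel of a power of `T - 1` into the image of the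
complementary power. -/
theorem norm_mem (n : ℕ) (T T' f : Module.End F V) (hT : T * T' = 1) (hT' : T' * T = 1) {m : ℕ} {v : V}
    (hv : ((T - 1) ^ m) v = 0) :
    ∃ w, (∑ i ∈ range (p ^ n), T ^ i * f * T' ^ i) v = ((T - 1) ^ (p ^ n - m)) w := by
  set q := p ^ n with hq
  let A : Module.End F (Module.End F V) := LinearMap.mulLeft F T * LinearMap.mulRight F T'
  have hA : ∀ (i : ℕ) (g : Module.End F V), (A ^ i) g = T ^ i * g * T' ^ i := by
    intro i
    induction i with
    | zero => simp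
    | succ i ih =>
      intro g
      rw [pow_succ', Module.End.mul_apply, ih, pow_succ', pow_succ]
      simp [A, mul_assoc]
  let D : Module.End F (Module.End F V) := LinearMap.mulLeft F (T - 1) - LinearMap.mulRight F (T - 1)
  have hsum : ∑ i ∈ range q, T ^ i * f * T' ^ i = ((A - 1) ^ (q - 1)) f := by
    have h := congrArg (Polynomial.aeval A) (geom_eq_sub_pow (F := F) (p := p) n)
    simp only [map_sum, map_pow, map_sub, Polynomial.aeval_X, map_one] at h
    rw [← h, LinearMap.sum_apply]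
    exact Finset.sum_congr rfl fun i _ => (hA i f).symm
  have hfac : A - 1 = D * LinearMap.mulRight F T' := by
    refine LinearMap.ext fun g => ?_
    simp only [A, D, Module.End.mul_apply, LinearMap.sub_apply, LinearMap.mulLeft_apply, LinearMap.mulRight_apply,
      Module.End.one_apply, sub_mul, mul_sub, one_mul, mul_one, mul_assoc, hT', hT]
    abel
  have hLR : ∀ a : Module.End F V, Commute (LinearMap.mulLeft F (T - 1)) (LinearMap.mulRight F a) := fun a =>
    LinearMap.ext fun g => by simp [mul_assoc]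
  have hTT : Commute T T' := hT.trans hT'.symm
  have hcD : Commute D (LinearMap.mulRight F T') := by
    refine (hLR T').sub_left (LinearMap.ext fun g => ?_)
    simp only [Module.End.mul_apply, LinearMap.mulRight_apply, mul_assoc]
    rw [((hTT.sub_left (Commute.one_left T'))).eq]
  have hD : ∀ (j : ℕ) (g : Module.End F V), ∃ C : ℕ → ℕ → Module.End F V,
      (D ^ j) g = ∑ a ∈ antidiagonal j, (T - 1) ^ a.1 * C a.1 a.2 * (T - 1) ^ a.2 := by
    intro j g
    have h := (hLR (-(T - 1))).add_pow' j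
    have hD' : D = LinearMap.mulLeft F (T - 1) + LinearMap.mulRight F (-(T - 1)) := by
      refine LinearMap.ext fun g => ?_
      simp [D, sub_eq_add_neg, mul_add]
    refine ⟨fun a b => ((Nat.choose j a : ℕ) : Module.End F V) * ((-1 : Module.End F V) ^ b * g), ?_⟩
    rw [hD', h, LinearMap.sum_apply]
    refine Finset.sum_congr rfl fun a _ => ?_
    rw [LinearMap.smul_apply, Module.End.mul_apply, LinearMap.pow_mulRight, LinearMap.pow_mulLeft,
      LinearMap.mulRight_apply, LinearMap.mulLeft_apply, neg_pow, nsmul_eq_mul]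
    have hc : Commute ((-1 : Module.End F V) ^ a.2) g := (Commute.neg_one_left g).pow_left _
    rw [← mul_assoc g, ← hc.eq, ← mul_assoc ((T - 1) ^ a.1), ← mul_assoc, ← mul_assoc,
      ← mul_assoc ((T - 1) ^ a.1), (Nat.cast_commute (Nat.choose j a.1) ((T - 1) ^ a.1)).eq]
  rw [hsum, hfac, hcD.mul_pow, Module.End.mul_apply, LinearMap.pow_mulRight, LinearMap.mulRight_apply]
  obtain ⟨C, hC⟩ := hD (q - 1) (f * T' ^ (q - 1))
  rw [hC, LinearMap.sum_apply]
  show ∃ w, _ = _
  have key : (∑ a ∈ antidiagonal (q - 1), ((T - 1) ^ a.1 * C a.1 a.2 * (T - 1) ^ a.2) v) ∈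
      LinearMap.range ((T - 1) ^ (q - m)) := by
    refine Submodule.sum_mem _ fun a ha => ?_
    rw [Finset.HasAntidiagonal.mem_antidiagonal] at ha
    rcases le_or_gt m a.2 with h | h
    · rw [Module.End.mul_apply, show ((T - 1) ^ a.2) v = ((T - 1) ^ (a.2 - m)) (((T - 1) ^ m) v) by
        rw [← Module.End.mul_apply, ← pow_add, Nat.sub_add_cancel h], hv, map_zero, map_zero]
      exact Submodule.zero_mem _
    · rw [mul_assoc, Module.End.mul_apply, show a.1 = (q - m) + (a.1 - (q - m)) by omega, pow_add,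
        Module.End.mul_apply]
      exact ⟨_, rfl⟩
  obtain ⟨w, hw⟩ := key
  exact ⟨w, hw.symm⟩

variable [FiniteDimensional F V] {G : Type*} [Group G] [Finite G]

theorem le_finrank (ρ : Representation F G V) (hfaith : Function.Injective ρ)
    (hirr : ρ.IsIrreducible) (P : Sylow p G) (hcyc : IsCyclic P) {n : ℕ} (hn : 2 ≤ n) (hPn : Nat.card P = p ^ n)
    (hTI : ∀ Q : Sylow p G, Q ≠ P → (P : Subgroup G) ⊓ (Q : Subgroup G) = ⊥) :
    p ^ n - (p - 1) ≤ Module.finrank F V := by
  classical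
  haveI : Fintype G := Fintype.ofFinite G
  have hp := (Fact.out : p.Prime)
  obtain ⟨z, hz⟩ := hcyc.exists_generator
  obtain ⟨q, hq⟩ : ∃ q, q = p ^ n := ⟨_, rfl⟩
  have hordz : orderOf (z : G) = q := by
    rw [Subgroup.orderOf_coe, orderOf_eq_card_of_forall_mem_zpowers hz, hPn, hq]
  have hmem : ∀ a ∈ (P : Subgroup G), ∃ r : ℕ, (z : G) ^ r = a := fun a ha => by
    obtain ⟨r, hr⟩ := (mem_powers_iff_mem_zpowers).2 (hz ⟨a, ha⟩)
    exact ⟨r, congrArg Subtype.val hr⟩
  obtain ⟨T, hT⟩ : ∃ T, T = ρ (z : G) := ⟨_, rfl⟩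
  obtain ⟨X, hX⟩ : ∃ X, X = T - 1 := ⟨_, rfl⟩
  haveI : Nontrivial V := by
    by_contra h
    rw [not_nontrivial_iff_subsingleton] at h
    have h1 : (z : G) = 1 := hfaith (Subsingleton.elim _ _)
    have h2 := hordz
    rw [h1, orderOf_one, hq] at h2
    exact absurd h2.symm (Nat.one_lt_pow (by omega) hp.one_lt).ne'
  haveI : CharP (Module.End F V) p := charP_of_injective_algebraMap (algebraMap F (Module.End F V)).injective p
  have hXpow : ∀ j, X ^ p ^ j = ρ ((z : G) ^ p ^ j) - 1 := fun j => by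
    rw [hX, sub_pow_char_pow_of_commute p j (Commute.one_right T), one_pow, map_pow, hT]
  have hXq : X ^ q = 0 := by
    rw [hq, hXpow, ← hq, ← hordz, pow_orderOf_eq_one, map_one, sub_self]
  have hX1 : X ^ p ^ (n - 1) ≠ 0 := fun h => by
    rw [hXpow, sub_eq_zero, ← map_one ρ] at h
    have h1 := orderOf_dvd_of_pow_eq_one (hfaith h)
    rw [hordz, hq, Nat.pow_dvd_pow_iff_le_right hp.one_lt] at h1
    omega
  have hXd : X ^ Module.finrank F V = 0 := by
    have h := (LinearMap.charpoly_eq_X_pow_iff X).2 fun v => ⟨q, by rw [hXq, LinearMap.zero_apply]⟩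
    have h2 := LinearMap.aeval_self_charpoly X
    rwa [h, map_pow, Polynomial.aeval_X] at h2
  obtain ⟨L, hL, hLmin⟩ : ∃ L, X ^ L = 0 ∧ ∀ j < L, X ^ j ≠ 0 :=
    ⟨Nat.find ⟨_, hXd⟩, Nat.find_spec (⟨_, hXd⟩ : ∃ L, X ^ L = 0), fun j hj => Nat.find_min _ hj⟩
  have hLd : L ≤ Module.finrank F V := by
    by_contra h
    exact hLmin _ (by omega) hXd
  have hLp : p ^ (n - 1) < L := by
    by_contra h
    exact hX1 (by rw [← Nat.sub_add_cancel (show L ≤ p ^ (n - 1) by omega), pow_add, hL, mul_zero])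
  -- the normalizer and its automorphisms of the Sylow subgroup
  obtain ⟨N, hN⟩ : ∃ N, N = Subgroup.normalizer ((P : Subgroup G) : Set G) := ⟨_, rfl⟩
  obtain ⟨O, hO⟩ : ∃ O : Finset G, O = univ.filter fun a => ∃ g ∈ N, g * z * g⁻¹ = a := ⟨_, rfl⟩
  have hconjP : ∀ g ∈ N, ∀ a ∈ (P : Subgroup G), g * a * g⁻¹ ∈ (P : Subgroup G) := fun g hg a ha =>
    (Subgroup.mem_normalizer_iff.1 (hN ▸ hg) a).1 ha
  have hOP : ∀ a ∈ O, a ∈ (P : Subgroup G) ∧ orderOf a = q := fun a ha => by
    obtain ⟨g, hg, rfl⟩ := (Finset.mem_filter.1 (hO ▸ ha)).2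
    exact ⟨hconjP g hg _ z.2, (orderOf_eq_orderOf_iff.2 fun k => by rw [conj_pow, conj_eq_one_iff]).trans hordz⟩
  have hexp : ∀ a, ∃ r s : ℕ, a ∈ O → (z : G) ^ r = a ∧ a ^ s = z := fun a => by
    by_cases ha : a ∈ O
    · obtain ⟨r, hr⟩ := hmem a (hOP a ha).1
      have hoz : (z : G) ∈ Subgroup.zpowers a := by
        have hle : Subgroup.zpowers a ≤ (P : Subgroup G) := Subgroup.zpowers_le.2 (hOP a ha).1
        rw [Subgroup.eq_of_le_of_card_ge hle (by rw [Nat.card_zpowers, (hOP a ha).2, hPn, hq])]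
        exact z.2
      obtain ⟨s, hs⟩ := mem_powers_iff_mem_zpowers.2 hoz
      exact ⟨r, s, fun _ => ⟨hr, hs⟩⟩
    · exact ⟨0, 0, fun h => absurd h ha⟩
  choose r s hrs using hexp
  have hcard : O.card ≤ p - 1 := by
    let θ := (P : Subgroup G).normalizerMonoidHom
    have hval : ∀ g : Subgroup.normalizer ((P : Subgroup G) : Set G),
        ((θ g z : (P : Subgroup G)) : G) = (g : G) * z * (g : G)⁻¹ := fun g => rfl
    have hinj : Function.Injective (fun f : θ.range => ((f.1 z : (P : Subgroup G)) : G)) := fun f f' h => by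
      refine Subtype.ext (MulEquiv.ext fun a => ?_)
      obtain ⟨i, rfl⟩ := Subgroup.mem_zpowers_iff.1 (hz a)
      rw [map_zpow, map_zpow, show f.1 z = f'.1 z from Subtype.ext h]
    have hO' : O.card = Nat.card θ.range := by
      rw [← Nat.card_range_of_injective hinj, ← Set.ncard_coe_finset, ← Nat.card_coe_set_eq]
      refine congrArg (fun S : Set G => Nat.card S) (Set.ext fun a => ⟨fun ha => ?_, ?_⟩)
      · obtain ⟨g, hg, rfl⟩ := (Finset.mem_filter.1 (hO ▸ ha)).2
        exact ⟨⟨_, ⟨⟨g, hN ▸ hg⟩, rfl⟩⟩, hval _⟩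
      · rintro ⟨⟨_, ⟨g, rfl⟩⟩, rfl⟩
        exact hO ▸ Finset.mem_filter.2 ⟨Finset.mem_univ _, g, hN ▸ g.2, (hval g).symm⟩
    have h1 : Nat.card θ.range ∣ p ^ (n - 1) * (p - 1) := by
      haveI : IsCyclic (P : Subgroup G) := hcyc
      rw [← Nat.totient_prime_pow hp (by omega), ← hPn, ← IsCyclic.card_mulAut]
      exact Subgroup.card_subgroup_dvd_card _
    have h2 : ¬ p ∣ Nat.card θ.range := by
      intro hdvd
      rw [← Subgroup.index_ker, Subgroup.normalizerMonoidHom_ker] at hdvd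
      have hle : (P : Subgroup G).subgroupOf (Subgroup.normalizer ((P : Subgroup G) : Set G)) ≤
          (Subgroup.centralizer ((P : Subgroup G) : Set G)).subgroupOf _ := fun g hg => by
        refine Subgroup.mem_centralizer_iff.2 fun b hb => ?_
        haveI : IsCyclic (P : Subgroup G) := hcyc
        letI := IsCyclic.commGroup (α := (P : Subgroup G))
        exact congrArg Subtype.val (mul_comm (⟨b, hb⟩ : (P : Subgroup G)) ⟨_, hg⟩)
      have h3 : (P : Subgroup G).relIndex (Subgroup.normalizer ((P : Subgroup G) : Set G)) ∣ (P : Subgroup G).index :=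
        Subgroup.relIndex_dvd_index_of_le (Subgroup.le_normalizer)
      exact P.not_dvd_index (hdvd.trans ((Subgroup.index_dvd_of_le hle).trans h3))
    rw [hO']
    exact Nat.le_of_dvd (by have := hp.two_le; omega)
      (Nat.Coprime.dvd_of_dvd_mul_left (Nat.Coprime.pow_right _ ((hp.coprime_iff_not_dvd.2 h2).symm)) h1)
  -- the operator
  obtain ⟨Q, hQ⟩ : ∃ Q : F[X], Q = ∏ a ∈ O, (Polynomial.X ^ r a - 1) := ⟨_, rfl⟩
  obtain ⟨Y, hY⟩ : ∃ Y, Y = Polynomial.aeval T Q := ⟨_, rfl⟩
  have hprodcongr : ∀ f g : G → F[X], (∀ a ∈ O, Polynomial.aeval T (f a) = Polynomial.aeval T (g a)) →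
      Polynomial.aeval T (∏ a ∈ O, f a) = Polynomial.aeval T (∏ a ∈ O, g a) := fun f g h => by
    clear hQ hY hcard hrs hOP hO
    induction O using Finset.induction_on with
    | empty => simp
    | insert a S ha ih =>
      rw [Finset.prod_insert ha, Finset.prod_insert ha, map_mul, map_mul, h a (Finset.mem_insert_self a S),
        ih fun b hb => h b (Finset.mem_insert_of_mem hb)]
  obtain ⟨R', hR'⟩ : ∃ R' : F[X], R' = ∏ a ∈ O, (∑ i ∈ range (r a), Polynomial.X ^ i) := ⟨_, rfl⟩
  obtain ⟨S', hS'⟩ : ∃ S' : F[X], S' = ∏ a ∈ O, (∑ i ∈ range (s a), (Polynomial.X ^ r a) ^ i) := ⟨_, rfl⟩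
  have hYX : Y = Polynomial.aeval T R' * X ^ O.card := by
    rw [hY, hX, hQ, hR', show (T - 1) ^ O.card = Polynomial.aeval T (∏ _a ∈ O, ((Polynomial.X : F[X]) - 1)) by
      simp, ← map_mul, ← Finset.prod_mul_distrib]
    exact hprodcongr _ _ fun a _ => by rw [geom_sum_mul]
  have hXY : X ^ O.card = Polynomial.aeval T S' * Y := by
    rw [hY, hX, hQ, hS', show (T - 1) ^ O.card = Polynomial.aeval T (∏ _a ∈ O, ((Polynomial.X : F[X]) - 1)) by
      simp, ← map_mul, ← Finset.prod_mul_distrib]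
    refine hprodcongr _ _ fun a ha => ?_
    rw [geom_sum_mul, map_sub, map_sub, map_pow, map_pow, Polynomial.aeval_X, hT, ← map_pow, ← map_pow,
      (hrs a ha).1, (hrs a ha).2]
  have hequi : ∀ g ∈ N, ρ g * Y = Y * ρ g := by
    intro g hg
    obtain ⟨r₀, hr₀⟩ := hmem _ (hconjP g hg _ z.2)
    have h1 : SemiconjBy (ρ g) T (T ^ r₀) := by
      rw [SemiconjBy, hT, ← map_pow, hr₀, ← map_mul, ← map_mul, inv_mul_cancel_right]
    have h2 : ∀ Q : F[X], SemiconjBy (ρ g) (Polynomial.aeval T Q) (Polynomial.aeval (T ^ r₀) Q) := fun Q => by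
      induction Q using Polynomial.induction_on' with
      | add a b ha hb => rw [map_add, map_add]; exact ha.add_right hb
      | monomial j c =>
        rw [Polynomial.aeval_monomial, Polynomial.aeval_monomial]
        exact (Algebra.commute_algebraMap_right c (ρ g)).semiconjBy.mul_right (h1.pow_right j)
    have h3 := h2 Q
    rw [show Polynomial.aeval (T ^ r₀) Q = Polynomial.aeval T (Q.comp (Polynomial.X ^ r₀)) by
      rw [Polynomial.aeval_comp, map_pow, Polynomial.aeval_X], ← hY] at h3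
    rw [h3.eq]
    congr 1
    rw [hY, hQ, Polynomial.prod_comp]
    have hperm : ∀ a, a ∈ O ↔ g * a * g⁻¹ ∈ O := fun a => by
      simp only [hO, Finset.mem_filter, Finset.mem_univ, true_and]
      constructor
      · rintro ⟨h, hh, rfl⟩
        exact ⟨g * h, mul_mem hg hh, by group⟩
      · rintro ⟨h, hh, he⟩
        refine ⟨g⁻¹ * h, mul_mem (inv_mem hg) hh, ?_⟩
        calc g⁻¹ * h * z * (g⁻¹ * h)⁻¹ = g⁻¹ * (h * z * h⁻¹) * g := by group
          _ = _ := by rw [he]; group
    rw [show (∏ a ∈ O, (Polynomial.X ^ r a - 1 : F[X])) = ∏ a ∈ O, (Polynomial.X ^ r (g * a * g⁻¹) - 1) from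
      (Finset.prod_bij' (fun a _ => g⁻¹ * a * g) (fun a _ => g * a * g⁻¹)
        (fun a ha => (hperm _).2 (by convert ha using 1; group)) (fun a ha => (hperm a).1 ha)
        (fun a _ => by group) (fun a _ => by group) (fun a _ => by congr 3; group))]
    refine hprodcongr _ _ fun a ha => ?_
    rw [Polynomial.sub_comp, Polynomial.pow_comp, Polynomial.X_comp, Polynomial.one_comp, ← pow_mul, map_sub,
      map_sub, map_pow, map_pow, Polynomial.aeval_X, hT, ← map_pow, ← map_pow, pow_mul, hr₀, conj_pow,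
      (hrs a ha).1, (hrs _ ((hperm a).1 ha)).1]
  -- the sum of the conjugates over the cosets of the normalizer
  letI : Fintype (G ⧸ N) := Fintype.ofFinite _
  let h : G ⧸ N → Module.End F V := fun c => ρ c.out * Y * ρ c.out⁻¹
  have hmk : ∀ g : G, h (g : G ⧸ N) = ρ g * Y * ρ g⁻¹ := fun g => by
    obtain ⟨u, hu⟩ := QuotientGroup.mk_out_eq_mul N g
    show ρ (g : G ⧸ N).out * Y * ρ (g : G ⧸ N).out⁻¹ = _
    rw [hu, _root_.mul_inv_rev, map_mul, map_mul]
    calc ρ g * ρ (u : G) * Y * (ρ (u : G)⁻¹ * ρ g⁻¹) = ρ g * (ρ (u : G) * Y) * ρ (u : G)⁻¹ * ρ g⁻¹ := by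
          simp only [mul_assoc]
      _ = ρ g * Y * (ρ (u : G) * ρ (u : G)⁻¹) * ρ g⁻¹ := by rw [hequi _ u.2]; simp only [mul_assoc]
      _ = _ := by rw [← map_mul, mul_inv_cancel, map_one, mul_one]
  have hsmul : ∀ (a : G) (c : G ⧸ N), h (a • c) = ρ a * h c * ρ a⁻¹ := fun a c => by
    obtain ⟨g, rfl⟩ := QuotientGroup.mk_surjective c
    rw [show a • (g : G ⧸ N) = ((a * g : G) : G ⧸ N) from rfl, hmk, hmk, _root_.mul_inv_rev, map_mul, map_mul]
    simp only [mul_assoc]
  have hcomm : ∀ g : G, ρ g * ∑ c, h c = (∑ c, h c) * ρ g := fun g => by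
    rw [Finset.mul_sum, Finset.sum_mul, ← Equiv.sum_comp (MulAction.toPerm g) fun c => h c * ρ g]
    refine Finset.sum_congr rfl fun c _ => ?_
    rw [MulAction.toPerm_apply, hsmul, mul_assoc (ρ g * h c), ← map_mul, inv_mul_cancel, map_one, mul_one]
  -- the free part
  have hfree : ∀ (a : G), a ∈ (P : Subgroup G) → ∀ c : G ⧸ N, c ≠ ((1 : G) : G ⧸ N) → a • c = c → a = 1 := by
    intro a ha c hc hac
    obtain ⟨g, rfl⟩ := QuotientGroup.mk_surjective c
    have hg : g ∉ N := fun hg => hc (QuotientGroup.eq.2 (by simpa using inv_mem hg))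
    have h1 : g⁻¹ * a * g ∈ N := by
      have := QuotientGroup.eq.1 (show ((a * g : G) : G ⧸ N) = (g : G ⧸ N) from hac)
      have h2 := inv_mem this
      simpa [mul_assoc] using h2
    have h2 : g⁻¹ * a * g ∈ (P : Subgroup G) := by
      have hp2 : IsPGroup p (Subgroup.zpowers (g⁻¹ * a * g)) := by
        have hpa := P.isPGroup'.to_le (Subgroup.zpowers_le.2 ha)
        refine (hpa.map (MulAut.conj g⁻¹).toMonoidHom).to_le (Subgroup.zpowers_le.2 ?_)
        exact ⟨a, Subgroup.mem_zpowers a, by simp⟩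
      exact ((hp2.inf_normalizer_sylow P).le ⟨Subgroup.mem_zpowers _, hN ▸ h1⟩).2
    by_contra ha1
    have hne : g • P ≠ P := fun h => hg (hN ▸ Sylow.smul_eq_iff_mem_normalizer.1 h)
    have h3 : a ∈ (P : Subgroup G) ⊓ (g • P : Sylow p G) := by
      refine ⟨ha, ?_⟩
      rw [Sylow.coe_subgroup_smul]
      exact ⟨g⁻¹ * a * g, h2, by simp [mul_assoc]⟩
    rw [hTI _ hne, Subgroup.mem_bot] at h3
    exact ha1 h3
  obtain ⟨c₁, hc₁⟩ : ∃ c₁ : G ⧸ N, c₁ = ((1 : G) : G ⧸ N) := ⟨_, rfl⟩
  have hzfix : ∀ i : ℕ, (z : G) ^ i • c₁ = c₁ := fun i => by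
    rw [hc₁]
    exact QuotientGroup.eq.2 (by simpa using hN ▸ Subgroup.le_normalizer (pow_mem z.2 i))
  let w : G ⧸ N → Prop := fun c => c ≠ c₁ ∧
    c = (Quotient.mk (MulAction.orbitRel ↥(P : Subgroup G) (G ⧸ N)) c).out
  obtain ⟨f, hf⟩ : ∃ f, f = ∑ c, if w c then h c else 0 := ⟨_, rfl⟩
  have hnorm : ∑ i ∈ range q, T ^ i * f * ρ ((z : G)⁻¹) ^ i = ∑ c ∈ univ.erase c₁, h c := by
    have hi : ∀ i, T ^ i * f * ρ ((z : G)⁻¹) ^ i = ∑ c, if w (((z : G) ^ i)⁻¹ • c) then h c else 0 := fun i => by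
      rw [hf, Finset.mul_sum, Finset.sum_mul, ← Equiv.sum_comp (MulAction.toPerm ((z : G) ^ i))
        (fun c => if w (((z : G) ^ i)⁻¹ • c) then h c else 0)]
      refine Finset.sum_congr rfl fun c _ => ?_
      rw [MulAction.toPerm_apply, inv_smul_smul, hsmul, hT, ← map_pow, ← map_pow, inv_pow]
      split_ifs <;> simp
    rw [Finset.sum_congr rfl fun i _ => hi i, Finset.sum_comm, ← Finset.sum_erase (f := fun c =>
      ∑ i ∈ range q, if w (((z : G) ^ i)⁻¹ • c) then h c else 0) univ (a := c₁) (Finset.sum_eq_zero fun i _ =>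
        if_neg fun hw => hw.1 (inv_smul_eq_iff.2 (hzfix i).symm))]
    refine Finset.sum_congr rfl fun c hc => ?_
    have hcne := (Finset.mem_erase.1 hc).1
    obtain ⟨o, ho⟩ : ∃ o, o = (Quotient.mk (MulAction.orbitRel ↥(P : Subgroup G) (G ⧸ N)) c).out := ⟨_, rfl⟩
    have hoc : ∃ a : ↥(P : Subgroup G), a • o = c := by
      have h1 : c ∈ MulAction.orbit ↥(P : Subgroup G) o :=
        MulAction.orbitRel_apply.1 (Quotient.eq.1 (ho ▸ (Quotient.out_eq _).symm))
      exact h1
    obtain ⟨a, ha⟩ := hoc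
    obtain ⟨i₀, hi₀⟩ := hmem a a.2
    have hi₀q : i₀ % q < q := Nat.mod_lt _ (hq ▸ pow_pos hp.pos n)
    have hpow : (z : G) ^ (i₀ % q) = a := by rw [← hi₀, ← hordz, pow_mod_orderOf]
    have hone : c₁ ≠ o := fun h1 => hcne (by
      rw [← ha, ← h1, show a • c₁ = (a : G) • c₁ from rfl, ← hpow, hzfix])
    rw [Finset.sum_eq_single (i₀ % q), if_pos]
    · refine ⟨?_, ?_⟩ <;> rw [hpow, show (a : G)⁻¹ • c = o by rw [← ha]; exact inv_smul_smul (a : G) o]
      · exact hone.symm
      · rw [ho]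
        exact (congrArg Quotient.out (Quotient.out_eq _)).symm
    · intro i hi hne
      refine if_neg fun hw => hne ?_
      have h1 : Quotient.mk (MulAction.orbitRel ↥(P : Subgroup G) (G ⧸ N)) (((z : G) ^ i)⁻¹ • c)
          = Quotient.mk _ c :=
        Quotient.sound (MulAction.orbitRel_apply.2 ⟨⟨((z : G) ^ i)⁻¹, inv_mem (pow_mem z.2 i)⟩, rfl⟩)
      have h2 : ((z : G) ^ i)⁻¹ • c = o := by rw [hw.2, h1, ← ho]
      have h3 : (((z : G) ^ i)⁻¹ * a) • o = o := by
        rw [mul_smul, show (a : G) • o = c from ha, h2]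
      have h4 := hfree _ (mul_mem (inv_mem (pow_mem z.2 i)) a.2) o (hc₁ ▸ hone.symm) h3
      rw [inv_mul_eq_one, ← hpow] at h4
      exact pow_injOn_Iio_orderOf (by rw [hordz]; exact Finset.mem_range.1 hi) (by rw [hordz]; exact hi₀q) h4
    · intro h1; exact absurd (Finset.mem_range.2 hi₀q) h1
  -- Schur
  obtain ⟨v, hv0, hv⟩ : ∃ v, v ≠ 0 ∧ X v = 0 := by
    obtain ⟨v, hv⟩ := DFunLike.ne_iff.1 (hLmin (L - 1) (by omega))
    refine ⟨(X ^ (L - 1)) v, hv, ?_⟩
    rw [← Module.End.mul_apply, ← pow_succ', Nat.sub_add_cancel (by omega), hL, LinearMap.zero_apply]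
  by_cases hbig : p ^ n - (p - 1) ≤ L
  · omega
  exfalso
  have hO1 : 1 ≤ O.card := Finset.card_pos.2 ⟨z, hO ▸ Finset.mem_filter.2 ⟨Finset.mem_univ _, 1, one_mem _, by simp⟩⟩
  have hTT : T * ρ ((z : G)⁻¹) = 1 := by rw [hT, ← map_mul, mul_inv_cancel, map_one]
  have hTT' : ρ ((z : G)⁻¹) * T = 1 := by rw [hT, ← map_mul, inv_mul_cancel, map_one]
  have hsumY : ∑ c, h c = Y + ∑ i ∈ range q, T ^ i * f * ρ ((z : G)⁻¹) ^ i := by
    rw [hnorm, ← Finset.add_sum_erase _ _ (Finset.mem_univ c₁), hc₁, hmk]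
    simp
  have hy : ∑ c, h c = 0 := by
    let φ : Representation.IntertwiningMap ρ ρ := ⟨∑ c, h c, fun g => (hcomm g).symm⟩
    rcases Representation.IsIrreducible.bijective_or_eq_zero φ with hb | hb
    · exfalso
      refine hv0 (hb.1 ?_)
      rw [map_zero]
      show (∑ c, h c) v = 0
      obtain ⟨w', hw'⟩ := norm_mem n T _ f hTT hTT' (m := 1) (v := v) (by rw [pow_one, ← hX]; exact hv)
      rw [← hq] at hw'
      rw [hsumY, LinearMap.add_apply, hw', hYX, Module.End.mul_apply, ← Nat.sub_add_cancel hO1, pow_succ,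
        Module.End.mul_apply, hv, map_zero, map_zero, zero_add, ← hX,
        show X ^ (q - 1) = X ^ (q - 1 - L) * X ^ L by rw [← pow_add]; congr 1; omega, hL, mul_zero,
        LinearMap.zero_apply]
    · exact congrArg Representation.IntertwiningMap.toLinearMap hb
  rw [hy] at hsumY
  have hlt : O.card < q - L := by rw [hq]; omega
  have hcs : Commute (Polynomial.aeval T S') X := by
    rw [hX, show T - 1 = Polynomial.aeval T ((Polynomial.X : F[X]) - 1) by simp]
    exact (Commute.all S' _).map _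
  have hstep : ∀ v, ∃ u, (X ^ O.card) v = (X ^ (O.card + 1)) u := by
    intro v
    obtain ⟨w', hw'⟩ := norm_mem n T _ f hTT hTT' (m := L) (v := v) (by rw [← hX, hL, LinearMap.zero_apply])
    rw [← hq, ← hX] at hw'
    have hYv : Y v = (X ^ (q - L)) (-w') := by
      rw [map_neg, ← hw', eq_neg_iff_add_eq_zero, ← LinearMap.add_apply, ← hsumY, LinearMap.zero_apply]
    refine ⟨(X ^ (q - L - (O.card + 1))) ((Polynomial.aeval T S') (-w')), ?_⟩
    rw [← Module.End.mul_apply (X ^ (O.card + 1)), ← pow_add,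
      show O.card + 1 + (q - L - (O.card + 1)) = q - L by omega,
      ← Module.End.mul_apply, ← (hcs.pow_right _).eq, Module.End.mul_apply, ← hYv, ← Module.End.mul_apply, ← hXY]
  have hrange : ∀ j, ∀ u, ∃ u', (X ^ O.card) u = (X ^ (O.card + j)) u' := by
    intro j
    induction j with
    | zero => exact fun u => ⟨u, rfl⟩
    | succ j ih =>
      intro u
      obtain ⟨u', hu'⟩ := ih u
      obtain ⟨u'', hu''⟩ := hstep u'
      refine ⟨u'', ?_⟩
      rw [hu', show O.card + j = j + O.card by omega, show O.card + (j + 1) = j + (O.card + 1) by omega,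
        pow_add, pow_add, Module.End.mul_apply, Module.End.mul_apply, hu'']
  refine hLmin O.card (by
    have := Nat.pow_le_pow_right hp.pos (show 1 ≤ n - 1 by omega)
    rw [pow_one] at this
    omega) (LinearMap.ext fun v => ?_)
  obtain ⟨u, hu⟩ := hrange L v
  rw [hu, pow_add, hL, mul_zero, LinearMap.zero_apply]
  rfl

end CfsgLib.Modular.CyclicTI
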